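import Cfsg.Agent.Lib.Block.Lft
import Cfsg.Agent.Lib.Modular.Rank

/-!
# Traces of conjugation on block algebras and alternating sums over chains of `p`-subgroups
-/

set_option autoImplicit false
set_option linter.unusedSectionVars false
set_option linter.dupNamespace false

namespace Cfsg.Lib.Block

open _root_.Cfsg.Lib.Block MonoidAlgebra Cfsg.Lib.Char Cfsg.Lib.Modular Cfsg.Lib.Transfer Subgroup
open scoped ComplexConjugate

variable {G : Type*} [Group G] [Finite G] {p : ℕ} [hp : Fact p.Prime] {K L T : Subgroup G}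
  {g x : G} {s t : Finset (Subgroup G)}

section Chains

theorem le_sup_zpowers_of_forall (hT : IsPGroup p T) (hL : L ≤ T) (hx : x ∈ T)
    (h : ∀ R, L ≤ R → x ∈ R → T ≤ normalizer (R : Set G) → T ≤ R) : T ≤ L ⊔ zpowers x := by
  by_contra hn
  obtain ⟨R, h1, h2, h3⟩ := Core.exists_maximal_ge (P := (· < T))
    (lt_of_le_not_ge (sup_le hL (zpowers_le.2 hx)) hn)
  refine h2.not_ge (h R (le_sup_left.trans h1) (h1 (mem_sup_right (mem_zpowers x))) ?_)
  by_contra h4
  have h5 := lt_inf_normalizer_of_lt hT h2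
  exact h5.ne' (h3 _ (lt_of_le_not_ge inf_le_left fun h => h4 (h.trans inf_le_right)) h5.le)

variable (p s) in
/-- Chains of nontrivial `p`-subgroups normalizing each other. -/
structure NChain : Prop where
  chain : ∀ Q ∈ s, ∀ R ∈ s, Q ≤ R ∨ R ≤ Q
  pgrp : ∀ Q ∈ s, Q ≠ ⊥ ∧ IsPGroup p Q
  norm : ∀ Q ∈ s, ∀ R ∈ s, R ≤ normalizer (Q : Set G)

/-- The stabilizer of a chain. -/
def chN (s : Finset (Subgroup G)) : Subgroup G := ⨅ Q ∈ s, normalizer (Q : Set G)

open Classical in
/-- The largest member of a chain not containing `x`. -/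
noncomputable def chL (s : Finset (Subgroup G)) (x : G) : Subgroup G := (s.filter (x ∉ ·)).sup id

/-- The top of the chain together with `x`. -/
def chT (s : Finset (Subgroup G)) (x : G) : Subgroup G := s.sup id ⊔ zpowers x

/-- The subgroup to be inserted into or removed from the chain. -/
def chR (s : Finset (Subgroup G)) (x : G) : Subgroup G :=
  sInf {R | chL s x ≤ R ∧ x ∈ R ∧ chT s x ≤ normalizer (R : Set G)}

theorem mem_chN : g ∈ chN s ↔ ∀ Q ∈ s, g ∈ normalizer (Q : Set G) := by simp [chN, mem_iInf]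

theorem NChain.mono (h : NChain p s) (ht : t ⊆ s) : NChain p t :=
  ⟨fun Q hQ R hR => h.chain Q (ht hQ) R (ht hR), fun Q hQ => h.pgrp Q (ht hQ),
    fun Q hQ R hR => h.norm Q (ht hQ) R (ht hR)⟩

theorem NChain.sup_mem (h : NChain p s) : s.sup id = ⊥ ∨ s.sup id ∈ s :=
  Finset.sup_induction (p := fun Q => Q = ⊥ ∨ Q ∈ s) (Or.inl rfl) (by
    rintro Q (rfl | hQ) R (rfl | hR)
    · simp
    · simp [hR]
    · simp [hQ]
    · rcases h.chain Q hQ R hR with e | e
      · exact Or.inr (by rwa [sup_eq_right.2 e])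
      · exact Or.inr (by rwa [sup_eq_left.2 e])) fun _ => Or.inr

theorem NChain.isPGroup_sup (h : NChain p s) : IsPGroup p (s.sup id : Subgroup G) :=
  h.sup_mem.elim (fun e => e ▸ IsPGroup.of_bot) fun e => (h.pgrp _ e).2

theorem NChain.le_normalizer_sup (h : NChain p s) (ht : t ⊆ s) :
    chN s ≤ normalizer ((t.sup id : Subgroup G) : Set G) := fun g hg =>
  (h.mono ht).sup_mem.elim (fun e => by rw [e, normalizer_eq_top]; trivial) fun e => mem_chN.1 hg _ (ht e)

theorem NChain.sup_le_chN (h : NChain p s) : s.sup id ≤ chN s :=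
  Finset.sup_le fun R hR _ hg => mem_chN.2 fun Q hQ => h.norm Q hQ R hR hg

theorem centralizer_le_chN :
    centralizer ((s.sup id : Subgroup G) : Set G) ≤ chN s := fun _ hg => mem_chN.2 fun Q hQ =>
  centralizer_le_normalizer _ (centralizer_le (show Q ≤ s.sup id from Finset.le_sup (f := id) hQ) hg)

theorem mem_chR : x ∈ chR s x := mem_sInf.2 fun _ h => h.2.1

theorem chL_le_chR : chL s x ≤ chR s x := le_sInf fun _ h => h.1

theorem chL_le_chT : chL s x ≤ chT s x := by
  classical exact (Finset.sup_mono (Finset.filter_subset _ _)).trans le_sup_left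

theorem mem_chT : x ∈ chT s x := mem_sup_right (mem_zpowers x)

theorem chR_le_chT : chR s x ≤ chT s x := sInf_le ⟨chL_le_chT, mem_chT, le_normalizer⟩

theorem chT_le_normalizer : chT s x ≤ normalizer (chR s x : Set G) := fun g hg =>
  mem_normalizer_of_conj_le (le_sInf fun _ h =>
    (conj_mono g (sInf_le h)).trans_eq (conj_eq_self_iff.2 (h.2.2 hg)))

theorem NChain.mem_normalizer_chT (h : NChain p s) (hg : g ∈ chN s ⊓ centralizer {x}) :
    g ∈ normalizer (chT s x : Set G) :=
  normalizer_inf_normalizer_le_normalizer_sup _ _ ⟨h.le_normalizer_sup subset_rfl hg.1,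
    centralizer_le_normalizer _ ((centralizer_zpowers x).ge hg.2)⟩

theorem NChain.le_normalizer_chR (h : NChain p s) :
    chN s ⊓ centralizer {x} ≤ normalizer (chR s x : Set G) := fun g hg => by
  classical
  have hg' := inv_mem hg
  refine mem_normalizer_of_conj_le (conj_le_iff_le_inv_conj.2 (sInf_le ⟨?_, ?_, ?_⟩))
  · exact (conj_eq_self_iff.2 (h.le_normalizer_sup (Finset.filter_subset _ _) hg'.1)).ge.trans
      (conj_mono _ chL_le_chR)
  · rw [mem_conj, inv_inv, mem_centralizer_singleton_iff.1 hg.2, mul_inv_cancel_right]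
    exact mem_chR
  · rw [← conj_normalizer, ← conj_eq_self_iff.2 (h.mem_normalizer_chT hg')]
    exact conj_mono _ chT_le_normalizer

variable (h : NChain p s) (hx : x ∈ chN s) (hx' : ∃ k : ℕ, orderOf x = p ^ k)
include h hx

theorem NChain.chT_le : chT s x ≤ chN s := sup_le h.sup_le_chN (zpowers_le.2 hx)

include hx'

theorem NChain.isPGroup_chT : IsPGroup p (chT s x) :=
  PGroup.isPGroup_sup_of_le_normalizer h.isPGroup_sup (isPGroup_zpowers hp.out hx')
    (zpowers_le.2 (h.le_normalizer_sup subset_rfl hx))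

theorem NChain.insert_chR [DecidableEq (Subgroup G)] (h1 : x ≠ 1) :
    NChain p (insert (chR s x) s) := by
  classical
  have h2 : ∀ Q ∈ s, Q ≤ chR s x ∨ chR s x ≤ Q := fun Q hQ => by
    by_cases hxQ : x ∈ Q
    · refine Or.inr (sInf_le ⟨Finset.sup_le fun R hR => ?_, hxQ,
        fun g hg => mem_chN.1 (h.chT_le hx hg) Q hQ⟩)
      exact (h.chain R (Finset.mem_filter.1 hR).1 Q hQ).resolve_right fun e =>
        (Finset.mem_filter.1 hR).2 (e hxQ)
    · exact Or.inl ((Finset.le_sup (f := id) (Finset.mem_filter.2 ⟨hQ, hxQ⟩)).trans chL_le_chR)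
  refine ⟨?_, ?_, ?_⟩ <;> simp only [Finset.mem_insert, forall_eq_or_imp]
  · exact ⟨⟨Or.inl le_rfl, fun Q hQ => (h2 Q hQ).symm⟩, fun Q hQ => ⟨h2 Q hQ, h.chain Q hQ⟩⟩
  · exact ⟨⟨fun e => h1 (mem_bot.1 (e ▸ mem_chR)), (h.isPGroup_chT hx hx').to_le chR_le_chT⟩,
      h.pgrp⟩
  · exact ⟨⟨le_normalizer, fun Q hQ => (Finset.le_sup (f := id) hQ).trans
      (le_sup_left.trans chT_le_normalizer)⟩, fun Q hQ =>
      ⟨fun g hg => mem_chN.1 (h.chT_le hx (chR_le_chT hg)) Q hQ, h.norm Q hQ⟩⟩

omit h hx hx' in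
theorem chL_insert [DecidableEq (Subgroup G)] (hK : x ∈ K) : chL (insert K s) x = chL s x := by
  rw [chL, chL, Finset.filter_insert, if_neg (not_not.2 hK)]

omit h hx hx' in
theorem chT_insert [DecidableEq (Subgroup G)] : chT (insert (chR s x) s) x = chT s x := by
  rw [chT, Finset.sup_insert, sup_assoc]
  exact sup_eq_right.2 chR_le_chT

omit h hx hx' in
theorem chR_insert [DecidableEq (Subgroup G)] : chR (insert (chR s x) s) x = chR s x := by
  conv_lhs => rw [chR, chL_insert mem_chR, chT_insert]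
  rfl

omit hx hx' in
theorem NChain.chN_insert [DecidableEq (Subgroup G)] :
    chN (insert (chR s x) s) ⊓ centralizer {x} = chN s ⊓ centralizer {x} := by
  rw [chN, Finset.iInf_insert, inf_assoc]
  exact inf_eq_right.2 h.le_normalizer_chR

theorem NChain.chR_erase [DecidableEq (Subgroup G)] (hR : chR s x ∈ s) :
    chR (s.erase (chR s x)) x = chR s x := by
  classical
  have h1 : chL (s.erase (chR s x)) x = chL s x := by
    rw [← chL_insert (K := chR s x) mem_chR, Finset.insert_erase hR]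
  have h2 : chT (s.erase (chR s x)) x = chT s x := by
    refine le_antisymm (sup_le_sup_right (Finset.sup_mono (Finset.erase_subset _ _)) _) ?_
    by_cases e : chR s x = chT s x
    · exact (le_sup_zpowers_of_forall (h.isPGroup_chT hx hx') chL_le_chT mem_chT fun R a b c =>
        e ▸ sInf_le ⟨a, b, c⟩).trans (sup_le (h1 ▸ chL_le_chT) le_sup_right)
    · refine sup_le_sup_right ?_ _
      rcases h.sup_mem with e' | e'
      · exact e' ▸ bot_le
      · refine Finset.le_sup (f := id) (Finset.mem_erase.2 ⟨fun e'' => e ?_, e'⟩)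
        exact le_antisymm chR_le_chT (sup_le e''.le (zpowers_le.2 mem_chR))
  conv_lhs => rw [chR, h1, h2]
  rfl

omit h hx in
open Classical in
theorem sum_nChain_eq_zero [Fintype (Subgroup G)] (h1 : x ≠ 1) (F : Subgroup G → Subgroup G → ℂ) :
    ∑ s with NChain p s ∧ x ∈ chN s,
      (-1) ^ s.card * F (chN s ⊓ centralizer {x}) (chT s x) = 0 := by
  have key : ∀ s, NChain p s → chR s x ∉ s →
      (-1) ^ s.card * F (chN s ⊓ centralizer {x}) (chT s x) + (-1) ^ (insert (chR s x) s).card *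
        F (chN (insert (chR s x) s) ⊓ centralizer {x}) (chT (insert (chR s x) s) x) = 0 :=
    fun s h hR => by rw [Finset.card_insert_of_notMem hR, h.chN_insert, chT_insert]; ring
  refine Finset.sum_involution
    (fun s _ => if chR s x ∈ s then s.erase (chR s x) else insert (chR s x) s) (fun s hs => ?_)
    (fun s _ _ => ?_) (fun s hs => ?_) fun s hs => ?_ <;> try have ⟨h, hx⟩ := (Finset.mem_filter.1 hs).2
  · split_ifs with hR
    · have := key _ (h.mono (Finset.erase_subset (chR s x) s))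
      rw [h.chR_erase hx hx' hR, Finset.insert_erase hR, add_comm] at this
      exact this (Finset.notMem_erase _ _)
    · exact key s h hR
  · split_ifs with hR
    · exact Finset.erase_eq_self.not.2 (not_not.2 hR)
    · exact Finset.insert_eq_self.not.2 hR
  · refine Finset.mem_filter.2 ⟨Finset.mem_univ _, ?_⟩
    split_ifs with hR
    · exact ⟨h.mono (Finset.erase_subset _ _), mem_chN.2 fun Q hQ =>
        mem_chN.1 hx Q (Finset.mem_of_mem_erase hQ)⟩
    · exact ⟨h.insert_chR hx hx' h1, (h.chN_insert.ge ⟨hx, mem_centralizer_singleton_iff.2 rfl⟩).1⟩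
  · by_cases hR : chR s x ∈ s
    · simp [hR, h.chR_erase hx hx' hR]
    · simp [hR, chR_insert]

end Chains

open Classical in
/-- The function counting conjugators in `K`. -/
noncomputable def cnt (K : Subgroup G) (g y : G) : ℂ :=
  if ∃ k ∈ K, k * g * k⁻¹ = y then Nat.card ↥(K ⊓ centralizer {g}) else 0

theorem cnt_coe (g : K) :
    (fun y : K => cnt K g y) = (Nat.card (centralizer ({g} : Set K)) : ℂ) • classIndicator g := by
  funext y
  have h : (∃ k ∈ K, k * g * k⁻¹ = y) ↔ IsConj g y := by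
    simp [isConj_iff, Subtype.ext_iff]
  rw [cnt, Pi.smul_apply, smul_eq_mul]
  split_ifs with h1
  · rw [classIndicator_of_isConj (h.1 h1), mul_one, inf_comm, ← subgroupOf_map_subtype, card_subtype]
    congr 3
    ext c
    simp [mem_subgroupOf, mem_centralizer_singleton_iff, Subtype.ext_iff]
  · rw [classIndicator_of_not_isConj (mt h.2 h1), mul_zero]

theorem isClassFunction_cnt (hg : g ∈ K) : IsClassFunction K fun y => cnt K g y :=
  cnt_coe ⟨g, hg⟩ ▸ (isClassFunction_classIndicator _).smul _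

theorem cnt_top (g : G) :
    cnt ⊤ g = (Nat.card (centralizer ({g} : Set G)) : ℂ) • classIndicator g := by
  funext y
  have h : (∃ k ∈ (⊤ : Subgroup G), k * g * k⁻¹ = y) ↔ IsConj g y := by simp [isConj_iff]
  rw [cnt, Pi.smul_apply, smul_eq_mul]
  split_ifs with h1
  · rw [classIndicator_of_isConj (h.1 h1), mul_one, top_inf_eq]
  · rw [classIndicator_of_not_isConj (mt h.2 h1), mul_zero]

variable {M : Ideal AlgInt} [Modular p M] {a : (Res M)[G]}

/-- The trace of conjugation by `g` on the ideal of `ℂ K` belonging to `a`. -/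
noncomputable def ctr (K : Subgroup G) (a : (Res M)[G]) (g : G) : ℂ :=
  ev (cnt K g) (lft K a * of ℂ G g)

open Classical in
theorem ctr_eq_sum (a : (Res M)[G]) (g : K) :
    ctr K a g = ∑ χ with χ ∈ idSet K a, (χ : K → ℂ) g * conj ((χ : K → ℂ) g) := by
  rw [sum_mul_conj_eq_blockPart, ctr, lft, ev_fbl_mul_of (isClassFunction_cnt g.2), cnt_coe,
    blockPart_apply ((isClassFunction_classIndicator _).smul _), ev_smul_left,
    blockPart_apply (isClassFunction_classIndicator _)]

open Classical in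
theorem ctr_top {A : Set (IrrCharacter G)} (hA : fblk A ∈ SG G M) (g : G) :
    ctr ⊤ (eblk M A) g = ∑ χ with χ ∈ A, (χ : G → ℂ) g * conj ((χ : G → ℂ) g) := by
  have h1 := mem_cen_top.2 (eblk_mem_fix (M := M) A)
  have h2 : eblk M A * eblk M A = eblk M A := by rw [eblk, ← redA_mul hA hA, fblk_idem]
  rw [sum_mul_conj_eq_blockPart, ctr, eq_fblk_of_redA hA (lft_mem_cen _).1 (lft_mem_SG _)
    (lft_idem _) (redA_lft h1 h2), cnt_top, ev_smul_left,
    blockPart_apply (isClassFunction_classIndicator _)]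

theorem ctr_eq_ctr_inf (ha : a ∈ cen (Res M) K) (ha' : a * a = a) (hg : g ∈ K) :
    ctr K a g = ctr (K ⊓ centralizer {pPart p g}) (br (zpowers (pPart p g)) a) g := by
  classical
  have hg' : g ∈ K ⊓ centralizer {pPart p g} :=
    ⟨hg, centralizer_le_centralizer_pPart g (mem_centralizer_singleton_iff.2 rfl)⟩
  have h1 : br (zpowers (pPart p g)) a ∈ cen (Res M) (K ⊓ centralizer {pPart p g}) :=
    centralizer_zpowers (pPart p g) ▸ br_mem_cen_inf (fix_anti inf_le_left ha.1) ha.2
  have h2 := br_idem (isPGroup_zpowers_pPart g) (fix_anti (zpowers_le.2 (pPart_mem p hg)) ha.1) ha'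
  rw [ctr, ev_congr_br (M := M) (isClassFunction_cnt hg) (lft_mem_SG a) (lft_mem_SG _)
    (lft_mem_cen a).2 (supp_mono inf_le_left (lft_mem_cen _).2) (lft_idem a) (lft_idem _)
    (commute_of_supp_of_fix (supp_mono inf_le_left (lft_mem_cen _).2) (lft_mem_cen a).1).symm hg
    ((lft_mem_cen a).1 g hg) ((lft_mem_cen _).1 g hg')
    (by rw [redA_lft ha ha', redA_lft h1 h2, br_br_of_le le_rfl])]
  refine ev_fbl_congr (p := p) (fblk_idSet_mem_SG _) ((isClassFunction_cnt hg).comp
    (inclusion inf_le_left)) (isClassFunction_cnt hg') hg' inf_le_right fun y _ hy => ?_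
  rw [cnt, cnt, inf_assoc, inf_eq_right.2 (centralizer_le_centralizer_pPart g)]
  refine if_congr ⟨fun ⟨k, hk, e⟩ => ⟨k, ⟨hk, ?_⟩, e⟩, fun ⟨k, hk, e⟩ => ⟨k, hk.1, e⟩⟩ rfl rfl
  rw [← e, pPart_conj] at hy
  exact mem_centralizer_singleton_iff.2 (mul_inv_eq_iff_eq_mul.1 hy)

open Classical in
theorem card_mul_sub_rank [Fintype G] {A : Set (IrrCharacter G)} (hA : fblk A ∈ SG G M) :
    (Nat.card G : ℂ) * (Nat.card A - blockRank p A) =
      ∑ g with p ∣ orderOf g, ∑ χ with χ ∈ A, (χ : G → ℂ) g * conj ((χ : G → ℂ) g) := by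
  rw [blockRank_eq_sum_of_inSpan fun χ hχ ψ hψ => regInner_irr_eq_zero (M := M) Modular.out fun h => by
      simpa [lam_eblk_of_mem_SG hA, hχ, hψ] using
        congrArg (· (eblk M A)) ((sameBlock_iff_lam χ.2 ψ.2).1 h), card_eq_card_filter, Finset.card_eq_sum_ones, Nat.cast_sum, ← Finset.sum_sub_distrib,
    Finset.mul_sum, Finset.sum_comm]
  refine Finset.sum_congr rfl fun χ _ => ?_
  rw [Nat.cast_one, ← χ.2.inner_self, regInner_eq_sum_filter, classInner_def, ← mul_sub,
    mul_inv_cancel_left₀ (Nat.cast_ne_zero.2 Nat.card_pos.ne'), sub_eq_iff_eq_add,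
    Finset.sum_filter_add_sum_filter_not]

open Classical in
theorem card_mul_sub_rank_idSet [Fintype G] (K : Subgroup G) (a : (Res M)[G]) :
    (Nat.card K : ℂ) * (Nat.card (idSet K a) - blockRank p (idSet K a)) =
      ∑ g with p ∣ orderOf g, if g ∈ K then ctr K a g else 0 := by
  have := Fintype.ofFinite K
  rw [card_mul_sub_rank (fblk_idSet_mem_SG a), ← Finset.sum_filter, Finset.filter_comm,
    Finset.sum_filter, Finset.sum_filter, Finset.sum_subtype (p := (· ∈ K)) (F := this) _ (by simp)]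
  simp only [ctr_eq_sum, orderOf_coe]

open Classical in
theorem Cfsg.IsPBlock.sum_chain [Fintype (Subgroup G)] {B : Set (IrrCharacter G)}
    (hB : IsPBlock M B) :
    (Nat.card G : ℂ) * (Nat.card B - blockRank p B) = ∑ s with s.Nonempty ∧ NChain p s,
      (-1) ^ (s.card - 1) * (Nat.card (chN s) : ℂ) *
        (Nat.card (idSet (chN s) (br (s.sup id) (eblk M B))) -
          blockRank p (idSet (chN s) (br (s.sup id) (eblk M B)))) := by
  have := Fintype.ofFinite G
  simp only [mul_assoc, card_mul_sub_rank_idSet]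
  simp only [Finset.mul_sum]
  rw [card_mul_sub_rank hB.fblk_mem_SG]
  refine (Finset.sum_congr rfl fun g hg => ?_).trans Finset.sum_comm
  have h1 := sum_nChain_eq_zero (pElt_pPart hp.out g)
    ((pPart_ne_one_iff hp.out).2 (Finset.mem_filter.1 hg).2)
    fun K T => if g ∈ K then ctr K (br T (eblk M B)) g else 0
  have h2 : ∑ s with NChain p s, (-1) ^ s.card *
      (if g ∈ chN s then ctr (chN s) (br (s.sup id) (eblk M B)) g else 0) = 0 := by
    refine .trans ?_ h1
    rw [← Finset.filter_filter, Finset.sum_filter (s := Finset.univ.filter _)]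
    refine Finset.sum_congr rfl fun s hs => ?_
    have h := (Finset.mem_filter.1 hs).2
    by_cases hg : g ∈ chN s
    · rw [if_pos hg, if_pos (pPart_mem p hg), if_pos ⟨hg, centralizer_le_centralizer_pPart g
        (mem_centralizer_singleton_iff.2 rfl)⟩, ctr_eq_ctr_inf (br_mem_cen_of_le centralizer_le_chN
          (h.le_normalizer_sup subset_rfl) (eblk_mem_fix' _ _))
        (br_idem h.isPGroup_sup (eblk_mem_fix' _ _) hB.eblk_idem) hg,
        ← br_sup_of_supp (br_mem_supp _ _), br_br_of_le le_sup_left, chT]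
    · simp [hg]
  rw [← Finset.add_sum_erase _ _ (a := ∅) (by simp; constructor <;> simp), add_eq_zero_iff_eq_neg,
    ← Finset.sum_neg_distrib] at h2
  rw [← ctr_top hB.fblk_mem_SG]
  convert h2 using 1
  · simp [chN, br_bot]
  · refine Finset.sum_congr (by ext; simp [Finset.nonempty_iff_ne_empty]) fun s hs => ?_
    obtain ⟨n, hn⟩ := Nat.exists_eq_add_one_of_ne_zero
      (Finset.card_ne_zero.2 (Finset.nonempty_iff_ne_empty.2 (Finset.ne_of_mem_erase hs)))
    rw [hn, Nat.add_sub_cancel, pow_succ]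
    ring

theorem NChain.setOf_induced_eq {B : Set (IrrCharacter G)} (h : NChain p s) (hB : IsPBlock M B) :
    {ψ : IrrCharacter (chN s) | ∃ β, ψ ∈ β ∧ IsInducedBlock M (chN s) β B} =
      idSet (chN s) (br (s.sup id) (eblk M B)) := by
  ext ψ
  have h1 := fun β (hβ : IsPBlock M β) (hψ : ψ ∈ β) => isInducedBlock_iff_lam_br h.isPGroup_sup
    h.sup_le_chN centralizer_le_chN (h.le_normalizer_sup subset_rfl) hβ hB hψ
  exact ⟨fun ⟨β, hψ, hβ⟩ => (h1 β hβ.1 hψ).1 hβ, fun hψ => ⟨_, mem_blockOf_self ψ,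
    (h1 _ (isPBlock_blockOf ψ) (mem_blockOf_self ψ)).2 hψ⟩⟩

theorem nChain_iff : s.Nonempty ∧ NChain p s ↔ s.Nonempty ∧ (∀ Q ∈ s, ∀ R ∈ s, Q ≤ R ∨ R ≤ Q) ∧
    (∀ Q ∈ s, Q ≠ ⊥ ∧ IsPGroup p Q) ∧ ∃ T ∈ s, ∀ Q ∈ s, Q ≤ T ∧ T ≤ normalizer (Q : Set G) := by
  refine and_congr_right fun ⟨Q, hQ⟩ => ⟨fun h => ⟨h.chain, h.pgrp, s.sup id, ?_, fun R hR => ?_⟩,
    fun ⟨h1, h2, T, _, h⟩ => ⟨h1, h2, fun Q hQ R hR => (h R hR).1.trans (h Q hQ).2⟩⟩
  · exact h.sup_mem.resolve_left fun e =>
      (h.pgrp Q hQ).1 (le_bot_iff.1 (e ▸ Finset.le_sup (f := id) hQ))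
  · exact ⟨Finset.le_sup (f := id) hR, fun g hg => mem_chN.1 (h.sup_le_chN hg) R hR⟩

end Cfsg.Lib.Block
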