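import Cfsg.Agent.Lib.Block.Solv
import Cfsg.Agent.Lib.Block.PrinExt
import Cfsg.Agent.Lib.CharDeg.CosetSum
import Cfsg.Agent.Lib.Coprime.SZ

/-!
# Central idempotents supported on `p`-regular elements (Kiyota–Okuyama)

In a `p`-solvable group a set `U` of irreducible characters with `∑_{χ ∈ U} χ(1) χ` vanishing on the
`p`-singular elements is a union of blocks (`subset_of_vanish`).
-/

set_option autoImplicit false
set_option linter.unusedSectionVars false
set_option linter.dupNamespace false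

namespace Cfsg.Lib.Block

open _root_.Cfsg.Lib.Block MonoidAlgebra Cfsg.Lib.Char Cfsg.Lib.Modular Cfsg.Lib.Transfer Subgroup
open Cfsg.Lib.Clifford Cfsg.Lib.Induce
open scoped ComplexConjugate ComplexOrder

universe u

variable {G : Type*} [Group G] [Finite G] {N K : Subgroup G} [hN : N.Normal] [hK : K.Normal]
variable {η : IrrCharacter K} {θ : IrrCharacter N} {a b c : ℂ[G]}

theorem tau_eq_omega (η : IrrCharacter K) (a : ℂ[G]) :
    tau η a = omega (extendByZero K (η : K → ℂ)) a := by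
  have := Fintype.ofFinite G
  have := Fintype.ofFinite K
  rw [tau_apply, omega_apply, omega_apply, ev_apply, ev_apply, ← OneMemClass.coe_one K,
    extendByZero_coe]
  congr 1
  simp only [mul_comm (a.coeff _), sum_extendByZero_mul]
  exact Finset.sum_congr rfl fun _ _ => mul_comm _ _

omit [Finite G] in
theorem isClassFunction_extendByZero {ξ : K → ℂ} (h : inertia K ξ = ⊤) :
    IsClassFunction G (extendByZero K ξ) := fun g x => by
  by_cases hg : g ∈ K
  · rw [extendByZero_of_mem K ξ hg, extendByZero_of_mem K ξ (hK.conj_mem g hg x)]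
    exact (inertia_eq_top_iff K).1 h x ⟨g, hg⟩
  · rw [extendByZero_of_not_mem K ξ hg, extendByZero_of_not_mem K ξ fun h' =>
      hg (by simpa [mul_assoc] using hK.conj_mem' _ h' x)]

/-- For invariant `η` the functional `tau η` is a trace on the whole group algebra. -/
theorem tau_mul_comm (h : inertia K (η : K → ℂ) = ⊤) (a b : ℂ[G]) :
    tau η (a * b) = tau η (b * a) := by
  rw [tau_eq_omega, tau_eq_omega, omega_apply, omega_apply,
    ev_mul_comm (isClassFunction_extendByZero h)]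

theorem tau_mul_of_res (hNK : N ≤ K) (h : ∀ n : N, (η : K → ℂ) ⟨n, hNK n.2⟩ = (θ : N → ℂ) n)
    (ha : a ∈ fix ℂ N) (ha' : a ∈ supp ℂ K) (c : ℂ[G]) : tau η (a * c) = tau η a * tau η c := by
  rw [tau_apply, res_subtype_mul_left K ha', omega_mul_of_res η.2.isCharacter
    (K := N.subgroupOf K) ?_ (res_mem_fix_comap _ ha)]
  · rfl
  · convert θ.2.comp_equiv (subgroupOfEquivOfLe hNK) using 2 with n
    exact h ⟨n, n.2⟩

theorem tau_eq_tau_of_res (hNK : N ≤ K) (h : ∀ n : N, (η : K → ℂ) ⟨n, hNK n.2⟩ = (θ : N → ℂ) n)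
    (ha : a ∈ supp ℂ N) : tau η a = tau θ a := by
  have h1 : ∀ g ∈ N, extendByZero K (η : K → ℂ) g = extendByZero N (θ : N → ℂ) g := fun g hg => by
    rw [extendByZero_of_mem K _ (hNK hg), extendByZero_of_mem N _ hg]; exact h ⟨g, hg⟩
  rw [tau_eq_omega, tau_eq_omega, omega_apply, omega_apply, h1 1 (one_mem _),
    ev_congr fun g hg => h1 g (mem_of_coeff_ne_zero ha hg)]

/-- Conjugation by `K` is invisible to `tau η` on the centralizer of `N`. -/
theorem tau_mul_cj (hNK : N ≤ K) (h : ∀ n : N, (η : K → ℂ) ⟨n, hNK n.2⟩ = (θ : N → ℂ) n)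
    (hη : inertia K (η : K → ℂ) = ⊤) (ha : a ∈ fix ℂ N) (hb : b ∈ fix ℂ N)
    (hab : b * a ∈ supp ℂ K) {k : G} (hk : k ∈ K) (hab' : a * cj k b ∈ supp ℂ K) :
    tau η (a * cj k b) = tau η (a * b) := by
  classical
  have := Fintype.ofFinite (N.subgroupOf K)
  have hb' := cj_mem_fix_of_mem_normalizer hb (le_normalizer_top (mem_top k))
  obtain ⟨n, -, hn⟩ : ∃ n ∈ (Finset.univ : Finset (N.subgroupOf K)),
      (η : K → ℂ) (n * ⟨k, hk⟩) * conj ((η : K → ℂ) (n * ⟨k, hk⟩)) ≠ 0 := by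
    refine Finset.exists_ne_zero_of_sum_ne_zero ?_
    rw [CharDeg.sum_coset_mul_conj_self _ η.2.isCharacter]
    · exact Nat.cast_ne_zero.2 Nat.card_pos.ne'
    · convert θ.2.comp_equiv (subgroupOfEquivOfLe hNK) using 2 with n
      exact h ⟨n, n.2⟩
  have h1 : cj k b = cj ((n : K) * k : G) b := by rw [cj_mul]; exact (hb' _ n.2).symm
  have h2 : tau η (rtr N ⊥ (of ℂ G ((n : K) * k))) ≠ 0 := by
    rw [tau_eq_omega, omega_rtr_of (isClassFunction_extendByZero hη), ← OneMemClass.coe_one K,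
      extendByZero_coe, extendByZero_of_mem K _ (mul_mem (n : K).2 hk)]
    exact mul_ne_zero (Nat.cast_ne_zero.2 index_ne_zero_of_finite)
      (div_ne_zero (left_ne_zero_of_mul hn) η.2.apply_one_ne_zero)
  refine mul_right_cancel₀ h2 ?_
  rw [← tau_mul_of_res hNK h (mul_mem ha hb') hab', tau_mul_comm hη a b,
    ← tau_mul_of_res hNK h (mul_mem hb ha) hab, mul_assoc, mul_rtr_of_fix _ hb', h1, cj_mul_of,
    ← rtr_mul_of_fix _ hb, ← mul_assoc, tau_mul_comm hη, mul_assoc]

theorem coeff_one_eq_tau (hc : c ∈ cen ℂ N) (h : c * fbl N {θ} = c) :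
    c.coeff 1 = tau θ c * ((Nat.card N : ℂ)⁻¹ * ((θ : N → ℂ) 1 * conj ((θ : N → ℂ) 1))) := by
  classical
  conv_lhs => rw [← h, mul_fbl_singleton hc, coeff_smul', ← OneMemClass.coe_one N, fbl,
    coeff_emb_subtype, coeff_fblk, blockCoeff_eq]
  simp only [Set.mem_singleton_iff, Finset.filter_eq', Finset.mem_univ, if_true,
    Finset.sum_singleton]

omit hN in
theorem blockCoeff_inv (U : Set (IrrCharacter G)) (g : G) :
    blockCoeff U g⁻¹ = conj (blockCoeff U g) := by
  simp only [blockCoeff_eq, map_mul, map_sum, map_inv₀, map_natCast, Complex.conj_conj,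
    fun χ : IrrCharacter G => χ.2.isCharacter.apply_inv g]
  congr 2 with χ
  rw [apply_one_eq_charDegree χ.2.isCharacter, map_natCast]

theorem coeff_cmp_mul_cmp_inv [Fintype G] (U : Set (IrrCharacter G)) (u : G ⧸ N) :
    (cmp N u (fblk U) * cmp N u⁻¹ (fblk U)).coeff 1 =
      ∑ g, (cmp N u (fblk U)).coeff g * conj ((cmp N u (fblk U)).coeff g) := by
  classical
  rw [coeff_mul_left]
  refine Finset.sum_congr rfl fun g _ => ?_
  simp only [coeff_cmp, mul_one, QuotientGroup.mk_inv, inv_inj, coeff_fblk, blockCoeff_inv]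
  split_ifs <;> simp

variable {p : ℕ} [hp : Fact p.Prime]

omit hN in
theorem exists_conj_eq_of_regular (hQ : IsPGroup p K) {x y : G} (hx : ¬ p ∣ orderOf x)
    (hy : ¬ p ∣ orderOf y) (h : x⁻¹ * y ∈ K) : ∃ k ∈ K, k * x * k⁻¹ = y := by
  have hc : ∀ {z : G}, ¬ p ∣ orderOf z → (Nat.card K).Coprime (Nat.card (zpowers z)) := fun hz =>
    Core.coprime_card_of_isPGroup hQ (by rwa [Nat.card_zpowers, Core.coprime_iff_not_dvd])
  obtain ⟨n, hn, h1⟩ := Coprime.exists_conj_mem_of_le_sup (N := K) (A := zpowers x)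
    (B := zpowers y) (le_top.trans le_normalizer_top) (zpowers_le.2 (by
      rw [← mul_inv_cancel_left x y]
      exact mul_mem (mem_sup_right (mem_zpowers x)) (mem_sup_left h))) (hc hy).symm
    (Or.inl inferInstance)
  have h2 : x⁻¹ * (n⁻¹ * y * n) ∈ K ⊓ zpowers x := by
    refine mem_inf.2 ⟨?_, mul_mem (inv_mem (mem_zpowers x)) (h1 y (mem_zpowers y))⟩
    have := mul_mem (mul_mem h (hK.conj_mem' _ (inv_mem hn) y)) hn
    convert this using 1; group
  rw [Coprime.inf_eq_bot_of_coprime' (hc hx), mem_bot, inv_mul_eq_one] at h2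
  exact ⟨n, hn, by rw [h2]; group⟩

/-- The central step: an idempotent over `θ` supported on `p`-regular elements lies in `ℂ N`. -/
theorem fblk_mem_supp_of_vanish {Q : Subgroup (G ⧸ N)} [Q.Normal] (hQ : IsPGroup p Q)
    (hC : centralizer (Q : Set (G ⧸ N)) ≤ Q) (hKQ : K = Q.comap (QuotientGroup.mk' N))
    (hNK : N ≤ K) (h : ∀ n : N, (η : K → ℂ) ⟨n, hNK n.2⟩ = (θ : N → ℂ) n)
    (hη : inertia K (η : K → ℂ) = ⊤) {U : Set (IrrCharacter G)}
    (hU : fblk U * fbl N {θ} = fblk U) (hv : ∀ g, p ∣ orderOf g → blockCoeff U g = 0) :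
    fblk U ∈ supp ℂ N := by
  classical
  have := Fintype.ofFinite G
  have := Fintype.ofFinite (G ⧸ N)
  let e := fun u => cmp N u (fblk U)
  have he : ∀ u, e u ∈ fix ℂ N := fun u => cmp_mem_fix N u (mem_fix_of_top (fblk_mem_fix U))
  have hmem : ∀ g : G, g ∈ K ↔ (g : G ⧸ N) ∈ Q := fun g => by rw [hKQ]; rfl
  have hreg : ∀ u, e u ≠ 0 → ¬ p ∣ orderOf u := fun u hu => by
    obtain ⟨g, hg⟩ := ne_zero_iff_coeff.1 hu
    rw [coeff_cmp] at hg
    split_ifs at hg with h1
    · exact h1 ▸ not_dvd_orderOf_map (QuotientGroup.mk' N) fun h2 => hg (hv g h2)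
    · exact (hg rfl).elim
  have hsupp : ∀ u v, u * v ∈ Q → e u * e v ∈ supp ℂ K := fun u v huv g hg => by
    rw [cmp_mul_cmp, coeff_cmp, if_neg fun h1 : (g : G ⧸ N) = u * v => hg ((hmem g).2 (h1 ▸ huv))]
  have hcj : ∀ (k : G) u, cj k (e u) = e (k * u * (k : G ⧸ N)⁻¹) := fun k u => ext_coeff fun g => by
    rw [coeff_cj, coeff_cmp, coeff_cmp, ← coeff_cj, fblk_mem_fix U k (mem_top k)]
    refine if_congr ?_ rfl rfl
    simp only [QuotientGroup.mk_mul, QuotientGroup.mk_inv]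
    constructor <;> intro h1
    · rw [← h1]; group
    · rw [h1]; group
  let t := fun u v => tau η (e u * e v)
  have hconj : ∀ u, ∀ k ∈ K, t u (k * u⁻¹ * (k : G ⧸ N)⁻¹) = t u u⁻¹ := fun u k hk => by
    have h1 : u * (k * u⁻¹ * (k : G ⧸ N)⁻¹) ∈ Q := by
      have := mul_mem (‹Q.Normal›.conj_mem _ ((hmem k).1 hk) u) (inv_mem ((hmem k).1 hk))
      convert this using 1; group
    have := hsupp _ _ h1
    rw [← hcj] at this
    simp only [t, ← hcj]
    exact tau_mul_cj hNK h hη (he _) (he _) (hsupp _ _ (by simp)) hk this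
  have hd : 0 < (Nat.card N : ℂ)⁻¹ * ((θ : N → ℂ) 1 * conj ((θ : N → ℂ) 1)) := by
    rw [Complex.mul_conj]
    have := Complex.normSq_pos.2 θ.2.apply_one_ne_zero
    have : 0 < Nat.card N := Nat.card_pos
    positivity
  have hval : ∀ u, t u u⁻¹ * ((Nat.card N : ℂ)⁻¹ * ((θ : N → ℂ) 1 * conj ((θ : N → ℂ) 1))) =
      ∑ g, (e u).coeff g * conj ((e u).coeff g) := fun u => by
    have h1 := cmp_mul_cmp_mem_cen (mul_inv_cancel u) (mem_fix_of_top (fblk_mem_fix U))
      (mem_fix_of_top (fblk_mem_fix U))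
    rw [← coeff_cmp_mul_cmp_inv, coeff_one_eq_tau h1 (θ := θ), ← tau_eq_tau_of_res hNK h h1.2]
    have h2 : fbl N {θ} = cmp N 1 (fbl N {θ}) := by
      rw [cmp_one, trunc_eq_self_of_supp (fbl_mem_cen _).2]
    rw [mul_assoc, h2, cmp_mul_cmp', ← h2, hU, mul_one]
  have hnn : ∀ u g, 0 ≤ (e u).coeff g * conj ((e u).coeff g) := fun u g => by
    rw [Complex.mul_conj]; exact_mod_cast Complex.normSq_nonneg _
  have hpos : ∀ u, 0 ≤ t u u⁻¹ := fun u => by
    have := mul_nonneg (hval u ▸ Finset.sum_nonneg fun g _ => hnn u g) (inv_pos.2 hd).le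
    rwa [mul_inv_cancel_right₀ hd.ne'] at this
  have hall : ∀ u v, 0 ≤ t u v := fun u v => by
    by_cases h0 : e u * e v = 0
    · simp only [t, h0, map_zero, le_refl]
    by_cases h1 : u * v ∈ Q
    · obtain ⟨k, hk, rfl⟩ := exists_conj_eq_of_regular hQ (x := u⁻¹) (y := v)
        (by rw [orderOf_inv]; exact hreg u (left_ne_zero_of_mul h0))
        (hreg v (right_ne_zero_of_mul h0)) (by rwa [inv_inv])
      obtain ⟨k, rfl⟩ := QuotientGroup.mk_surjective k
      rw [hconj u k ((hmem k).2 hk)]; exact hpos u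
    · refine le_of_eq ?_
      simp only [t]
      rw [← tau_trunc, trunc_eq_zero_iff.2 fun g hg => ?_, map_zero]
      rw [cmp_mul_cmp, coeff_cmp, if_neg fun h2 : (g : G ⧸ N) = u * v => h1 (h2 ▸ (hmem g).1 hg)]
  have hsum : ∑ u, ∑ v, t u v = ∑ u, t u u⁻¹ := by
    simp only [t, ← map_sum, ← Finset.mul_sum, ← Finset.sum_mul, e, sum_cmp, fblk_idem]
    have h1 : ∑ u, cmp N u (fblk U) * cmp N u⁻¹ (fblk U) = cmp N 1 (fblk U) := by
      simp only [cmp_mul_cmp, mul_inv_cancel, ← map_sum, ← Finset.sum_mul, sum_cmp, fblk_idem]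
    rw [h1, ← tau_trunc, ← tau_trunc (a := cmp N 1 _)]
    refine congrArg _ (ext_coeff fun g => ?_)
    rw [coeff_trunc, coeff_trunc, coeff_cmp]
    split_ifs with h2 h3
    · rfl
    · by_contra h4
      exact h3 (eq_one_of_pElt_of_not_dvd (pElt_of_mem hp.out hQ ((hmem g).1 h2))
        (not_dvd_orderOf_map (QuotientGroup.mk' N) fun h5 => h4 (hv g h5)))
    · rfl
  have hzero : ∀ u v, v ≠ u⁻¹ → t u v = 0 := fun u v huv => by
    have h1 : ∀ u, t u u⁻¹ ≤ ∑ v, t u v := fun u =>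
      Finset.single_le_sum (fun v _ => hall u v) (Finset.mem_univ _)
    have h2 := (Finset.sum_eq_sum_iff_of_le fun u _ => h1 u).1 hsum.symm u (Finset.mem_univ u)
    rw [← Finset.add_sum_erase _ _ (Finset.mem_univ u⁻¹), left_eq_add,
      Finset.sum_eq_zero_iff_of_nonneg fun v _ => hall u v] at h2
    exact h2 v (Finset.mem_erase.2 ⟨huv, Finset.mem_univ v⟩)
  intro g hg
  by_contra h0
  have h1 : (e g).coeff g ≠ 0 := by rwa [coeff_cmp, if_pos rfl]
  have h2 : t g (g : G ⧸ N)⁻¹ ≠ 0 := fun h2 => by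
    have h3 := hval g
    rw [h2, zero_mul, eq_comm, Finset.sum_eq_zero_iff_of_nonneg fun x _ => hnn g x] at h3
    exact mul_ne_zero h1 ((map_ne_zero _).2 h1) (h3 g (Finset.mem_univ g))
  have h3 : (g : G ⧸ N)⁻¹ ∈ Q := hC fun k hk => by
    obtain ⟨k, rfl⟩ := QuotientGroup.mk_surjective k
    by_contra h3
    exact h2 ((hconj g k ((hmem k).2 hk)).symm.trans
      (hzero _ _ fun h4 => h3 (mul_inv_eq_iff_eq_mul.1 h4)))
  exact hg ((QuotientGroup.eq_one_iff g).1 (eq_one_of_pElt_of_not_dvd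
    (pElt_of_mem hp.out hQ (inv_mem_iff.1 h3)) (hreg g fun h4 => h1 (h4 ▸ rfl))))

section Vanish
variable {M : Ideal AlgInt} [Modular p M] {B U V : Set (IrrCharacter G)}

omit hN hp in
open Classical in
theorem classInner_blockCoeff_inv [Fintype G] (U : Set (IrrCharacter G)) (χ : IrrCharacter G) :
    classInner (fun g => blockCoeff U g⁻¹) (χ : G → ℂ) =
      if χ ∈ U then (Nat.card G : ℂ)⁻¹ * (χ : G → ℂ) 1 else 0 := by
  have : (fun g => blockCoeff U g⁻¹) =
      ∑ ψ with ψ ∈ U, ((Nat.card G : ℂ)⁻¹ * (ψ : G → ℂ) 1) • (ψ : G → ℂ) := funext fun g => by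
    simp only [blockCoeff_eq, Finset.sum_apply, Pi.smul_apply, smul_eq_mul, Finset.mul_sum,
      fun χ : IrrCharacter G => χ.2.isCharacter.apply_inv g, Complex.conj_conj, mul_assoc]
  rw [this, classInner_sum_left]
  simp only [classInner_smul_left, irr_inner_eq_ite, mul_ite, mul_one, mul_zero,
    Finset.sum_ite_eq', Finset.mem_filter, Finset.mem_univ, true_and]

omit hN in
open Classical in
/-- A block component of a function vanishing on `p`-singular elements. -/
theorem Cfsg.IsPBlock.blockCoeff_eq_zero_of_inner [Fintype G] (hB : IsPBlock M B) {Φ : G → ℂ}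
    (hΦ : ∀ g, p ∣ orderOf g → Φ g = 0) {c : ℂ} (hc : c ≠ 0)
    (h : ∀ χ ∈ B, classInner Φ (χ : G → ℂ) = if χ ∈ V then c * (χ : G → ℂ) 1 else 0) (g : G)
    (hg : p ∣ orderOf g) : blockCoeff (V ∩ B) g = 0 := by
  have h1 := blockPart_apply_eq_zero hB.fblk_mem_SG (θ := Φ) (u := g⁻¹) fun x hx => hΦ x (by
    by_contra h2; exact regular_section hx.symm h2 (by rwa [orderOf_inv]))
  rw [blockPart_eq_sum, Finset.sum_apply, Finset.sum_congr rfl fun χ hχ => by
    rw [h χ (Finset.mem_filter.1 hχ).2]] at h1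
  simp only [Pi.smul_apply, smul_eq_mul, ite_mul, zero_mul, ← Finset.sum_filter, mul_assoc,
    ← Finset.mul_sum, Finset.filter_filter, mul_eq_zero, hc, false_or,
    fun χ : IrrCharacter G => χ.2.isCharacter.apply_inv g] at h1
  rw [blockCoeff_eq, mul_eq_zero, ← h1]
  exact Or.inr (Finset.sum_congr (by ext; simp [and_comm]) fun _ _ => rfl)

/-- Kiyota–Okuyama: Harada's conjecture for `p`-solvable groups. -/
theorem Cfsg.IsPBlock.subset_of_vanish {G : Type u} [Group G] [Finite G] (hG : IsPSolvable p G)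
    {B U : Set (IrrCharacter G)} (hB : IsPBlock M B)
    (hv : ∀ g, p ∣ orderOf g → blockCoeff U g = 0) (h : (U ∩ B).Nonempty) : B ⊆ U := by
  classical
  have := Fintype.ofFinite G
  refine fong_induction p M (fun G _ _ B => ∀ U : Set (IrrCharacter G),
    (∀ g, p ∣ orderOf g → blockCoeff U g = 0) → (U ∩ B).Nonempty → B ⊆ U) ?_ ?_ G hG B hB U hv h
  · intro G _ _ N T _ _ b hNT B' B _ hb hT hc hind ih U hv ⟨χ, hχ⟩
    let V : Set (IrrCharacter T) := {ψ | ∃ ξ ∈ U, (ξ : G → ℂ) = indFun T (ψ : T → ℂ)}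
    have hi : (T.index : ℂ) ≠ 0 := Nat.cast_ne_zero.2 index_ne_zero_of_finite
    have h1 := ih (V ∩ B') (hind.1.blockCoeff_eq_zero_of_inner
      (Φ := fun t : T => blockCoeff U (t : G)⁻¹) (fun t ht => hv _ (by simpa using ht))
      (mul_ne_zero (inv_ne_zero (Nat.cast_ne_zero.2 (Nat.card_pos (α := G)).ne')) hi)
      fun ψ hψ => ?_) ?_
    · intro ξ hξ
      obtain ⟨ψ, hψ, h2⟩ := (hc.mem_iff_indFun hb hT hind ξ).1 hξ
      obtain ⟨ξ', h3, h4⟩ := (h1 hψ).1
      rwa [show ξ = ξ' from Subtype.ext (h2.trans h4.symm)]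
    · have h2 := ((hc.over_le hb hind.1 hψ).isIrrCharacter_indFun hb hT.ge hNT).1
      rw [← frobenius_reciprocity' T _ (isClassFunction_blockCoeff U).comp_inv,
        classInner_blockCoeff_inv U ⟨_, h2⟩]
      split_ifs with h3 h4 h4
      · rw [mul_assoc]; exact congrArg _ (Lib.Induce.indFun_one _ _)
      · exact (h4 ⟨_, h3, rfl⟩).elim
      · obtain ⟨ξ, h4, h5⟩ := h4
        exact (h3 (by rwa [show ξ = ⟨_, h2⟩ from Subtype.ext h5] at h4)).elim
      · rfl
    · obtain ⟨ψ, hψ, h2⟩ := (hc.mem_iff_indFun hb hT hind χ).1 hχ.2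
      exact ⟨ψ, ⟨⟨χ, hχ.1, h2⟩, hψ⟩, hψ⟩
  · intro G _ _ _ θ B hG hinv hB h1 _ U hv ⟨χ, hχ⟩
    let N := pPrimeCore p G
    let K := pPrimePCore p G
    have hv' := hB.blockCoeff_eq_zero_of_inner (Φ := fun g => blockCoeff U g⁻¹)
      (fun g hg => hv _ (by rwa [orderOf_inv]))
      (inv_ne_zero (Nat.cast_ne_zero.2 (Nat.card_pos (α := G)).ne'))
      fun ψ _ => classInner_blockCoeff_inv U ψ
    have hNK : N ≤ K := fun n hn => by
      change QuotientGroup.mk' N n ∈ pCore p _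
      rw [QuotientGroup.mk'_apply, (QuotientGroup.eq_one_iff n).2 hn]; exact one_mem _
    have hK : K.Normal := inferInstanceAs (Normal (comap _ _))
    have hcop : (N.subgroupOf K).index.Coprime (Nat.card (N.subgroupOf K)) := by
      have h1 : N.relIndex K = Nat.card (pCore p (G ⧸ N)) := by
        conv_lhs => rw [← QuotientGroup.ker_mk' N]
        rw [relIndex_ker]
        exact congrArg (fun X : Subgroup (G ⧸ N) => Nat.card X)
          (map_comap_eq_self_of_surjective (QuotientGroup.mk'_surjective N) _)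
      rw [Coprime.card_subgroupOf_of_le hNK, ← relIndex, h1]
      exact Core.coprime_card_of_isPGroup (Core.pCore_isPGroup p _) (Core.pPrimeCore_coprime p G)
    have hθ' := θ.2.comp_equiv (subgroupOfEquivOfLe hNK)
    obtain ⟨η, hη, h2, h3⟩ := exists_extension_detOrder_eq (N.subgroupOf K) hθ'
      (invariant_subgroupOf N (hinv ▸ le_top)) (coprime_detOrder_mul_charDegree _ hθ' hcop)
    have h2' : ∀ n : N, η ⟨n, hNK n.2⟩ = (θ : N → ℂ) n := fun n => h2 ⟨⟨n, hNK n.2⟩, n.2⟩
    have hc := coprime_detOrder_mul_charDegree _ hθ' hcop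
    have hηi : inertia K η = ⊤ := eq_top_iff.2 fun g _ => by
      refine eq_of_res_eq_of_coprime_detOrder (N.subgroupOf K) hη.isCharacter
        (funext h2 ▸ hθ') (isCharacter_conjChar K hη.isCharacter g) (fun n => ?_) ?_ ?_ ?_
      · rw [h2]
        exact (h2' ⟨_, (inferInstance : N.Normal).conj_mem _ n.2 g⟩).trans
          ((inertia_eq_top_iff N).1 hinv g ⟨_, n.2⟩)
      · have h4 := apply_one_eq_charDegree hθ'.isCharacter
        rw [charDegree_eq ((h2 1).trans h4)]
        exact hc.coprime_mul_left_right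
      · exact h3 ▸ hc.coprime_mul_right_right
      · exact (h3 ▸ hc.coprime_mul_right_right).coprime_dvd_right (detOrder_comp_dvd
          hη.isCharacter (MulAut.conjNormal g : K ≃* K).toMonoidHom)
    have hb : IsPBlock M {θ} := isPBlock_singleton_of_not_dvd (Core.not_dvd_card_pPrimeCore p G) θ
    have hf : fbl N {θ} = fblk B := by
      rw [fbl, emb_fblk_eq (fbl_mem_fix_of_ebl le_normalizer_top hb.fblk_mem_SG fun g _ =>
        hb.inertia_le_stab rfl (hinv ▸ mem_top g))]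
      exact congrArg _ (Set.ext fun ξ => (over_subtype_iff ξ θ).trans (h1 ξ).symm)
    have h4 : fblk (U ∩ B) * fbl N {θ} = fblk (U ∩ B) := by
      rw [hf, fblk_mul_fblk, Set.inter_assoc, Set.inter_self]
    have h5 := fblk_mem_supp_of_vanish (η := ⟨η, hη⟩) (Core.pCore_isPGroup p _)
      (Core.isPConstrained_iff.1 (Core.isPConstrained_of_isPSolvable hG)) rfl hNK h2' hηi h4 hv'
    rw [mul_fbl_singleton ⟨mem_fix_of_top (fblk_mem_fix _), h5⟩, hf] at h4
    have h6 := congrArg (omega (χ : G → ℂ)) h4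
    rw [map_smul, omega_fblk_of_mem hχ.2, omega_fblk_of_mem hχ, smul_eq_mul, mul_one] at h6
    rw [h6, one_smul] at h4
    exact (fblk_injective h4).le.trans Set.inter_subset_left

end Vanish

end Cfsg.Lib.Block
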