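import Cfsg.Agent.Lib.Block.Constr
import Cfsg.Agent.Lib.Core.PiCore

/-!
# Kernels of blocks and Brauer pairs

For a `p'`-subgroup `L`, `e0 L M` is the averaging idempotent; `e0 L M * f = f` says that `L` lies
in the kernel of the block with idempotent `f`.
-/

set_option autoImplicit false
set_option linter.unusedSectionVars false
set_option linter.dupNamespace false

namespace Cfsg.Lib.Block

open _root_.Cfsg.Lib.Block MonoidAlgebra Cfsg.Lib.Char Cfsg.Lib.Modular Cfsg.Lib.Transfer Subgroup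

variable {G : Type*} [Group G] [Finite G] {K H L L' P Q R D : Subgroup G} {x : G}

theorem mul_ssum_of_supp {R : Type*} [CommRing R] {a : R[G]} (ha : a ∈ supp R L) :
    a * ssum R (L : Set G) = aug a • ssum R (L : Set G) := ext_coeff fun g => by
  classical
  have := Fintype.ofFinite G
  rw [coeff_mul_left, coeff_smul', aug_apply, Finset.sum_mul]
  refine Finset.sum_congr rfl fun y _ => ?_
  by_cases hy : y ∈ L
  · simp only [coeff_ssum, SetLike.mem_coe, mul_mem_cancel_left (inv_mem hy)]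
  · rw [ha y hy, zero_mul, zero_mul]

variable {p : ℕ} [hp : Fact p.Prime] {M : Ideal AlgInt} [Modular p M] {a e f g : (Res M)[G]}

theorem e0_mem_supp (h : L ≤ K) : e0 L M ∈ supp (Res M) K := supp_mono h isBlkIdem_e0.mem_cen.2

theorem e0_mem_cen (h : L ≤ K) (h' : K ≤ normalizer (L : Set G)) : e0 L M ∈ cen (Res M) K :=
  ⟨e0_mem_fix h', e0_mem_supp h⟩

theorem e0_mul_e0_of_le (hL : ¬ p ∣ Nat.card L) (h : L' ≤ L) : e0 L' M * e0 L M = e0 L M := by
  rw [e0_of_not_dvd hL, mul_smul_comm, mul_ssum_of_supp (e0_mem_supp h), aug_e0, one_smul]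

theorem e0_mul_of_le (hL : ¬ p ∣ Nat.card L) (h : L' ≤ L) (h' : e0 L M * a = a) :
    e0 L' M * a = a := by rw [← h', ← mul_assoc, e0_mul_e0_of_le hL h]

theorem br_e0_of_not_dvd (hL : ¬ p ∣ Nat.card L) (hQ : IsPGroup p Q)
    (h : Q ≤ normalizer (L : Set G)) : br Q (e0 L M) = e0 (L ⊓ centralizer (Q : Set G)) M :=
  (isBlkIdem_e0.br_of_not_dvd hL hQ h (e0_mem_fix h)).eq_e0_iff.2 (by
    rw [aug_br hQ (e0_mem_fix h), aug_e0]; exact one_ne_zero)

theorem Cfsg.IsPBlock.e0_mul_iff {b : Set (IrrCharacter K)} (hb : IsPBlock M b)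
    (hL : ¬ p ∣ Nat.card L) (h : L ≤ K) (h' : K ≤ normalizer (L : Set G)) :
    e0 L M * ebl K M b = ebl K M b ↔ ∀ y : K, (y : G) ∈ L → y ∈ blockKer b := by
  have : (L.subgroupOf K).Normal := normal_subgroupOf_of_le_normalizer h'
  have h1 : Nat.card (L.subgroupOf K) = Nat.card L := Nat.card_congr (subgroupOfEquivOfLe h).toEquiv
  have h2 : e0 L M = ebl K M (kerSet (L.subgroupOf K)) := by
    rw [← emb_res_subtype_of_supp K (e0_mem_supp (M := M) h), e0_of_not_dvd hL, ebl, eblk,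
      fblk_kerSet, redA_smul (natCast_inv_mem (h1 ▸ hL)) (ssum_mem_SG _), redA_ssum, map_smul,
      red_inv (by rwa [Ne, red_natCast_eq_zero_iff, h1]), red_natCast, h1]
    rfl
  rw [h2, hb.ebl_mul_ebl_eq_iff (fblk_kerSet_mem_SG (h1 ▸ hL))]
  exact ⟨fun h3 y hy χ hχ => h3 hχ y hy, fun h3 χ hχ y hy => h3 y hy χ hχ⟩

theorem IsBlkIdem.e0_mul_iff (ha : IsBlkIdem K M a) (hL : ¬ p ∣ Nat.card L) (h : L ≤ K)
    (h' : K ≤ normalizer (L : Set G)) (hQ : IsPGroup p Q) (hQL : Q ≤ normalizer (L : Set G))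
    (haQ : a ∈ fix (Res M) Q) (h0 : f ≠ 0) (hf : Block.br Q a * f = f) :
    e0 L M * a = a ↔ e0 (L ⊓ centralizer (Q : Set G)) M * f = f := by
  rw [← br_e0_of_not_dvd hL hQ hQL]
  refine ⟨fun h1 => by rw [← hf, ← mul_assoc, ← br_mul hQ (e0_mem_fix hQL) haQ, h1], fun h1 =>
    ha.mul_eq_of_ne_zero (e0_mem_cen h h') isBlkIdem_e0.idem fun h2 => h0 ?_⟩
  rw [← h1, ← hf, ← mul_assoc, ← br_mul hQ (e0_mem_fix hQL) haQ, h2, map_zero, zero_mul]

variable {π : Set ℕ}

omit [Modular p M] in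
theorem not_dvd_card_piCoreOf (hπ : p ∉ π) (K : Subgroup G) : ¬ p ∣ Nat.card (piCoreOf π K) :=
  fun h => hπ (Core.piCoreOf_isPiSubgroup π K p hp.out h)

theorem NSub.e0_mul_iff (h : NSub p M H Q f P e) (hL : ¬ p ∣ Nat.card L)
    (h1 : L ≤ H ⊓ centralizer (Q : Set G))
    (h2 : normalizer ((H ⊓ centralizer (Q : Set G) : Subgroup G) : Set G) ≤ normalizer (L : Set G)) :
    e0 L M * f = f ↔ e0 (L ⊓ centralizer (P : Set G)) M * e = e :=
  h.left.blk.e0_mul_iff hL h1 (le_normalizer.trans h2) h.right.pgrp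
    ((le_normalizer_inf_centralizer h.right.norm h.norm).trans h2) h.mem_fix h.right.blk.ne_zero h.mul

/-- The kernel condition descends along inclusions of Brauer pairs. -/
theorem Sub.e0_piCoreOf_mul (h : Sub p M H Q f P e) (hπ : p ∉ π)
    (he : e0 (piCoreOf π (H ⊓ centralizer (P : Set G))) M * e = e) :
    e0 (piCoreOf π (H ⊓ centralizer (Q : Set G))) M * f = f := by
  refine h.head_induction (C := fun (Q : Subgroup G) (f : (Res M)[G]) =>
    e0 (piCoreOf π (H ⊓ centralizer (Q : Set G))) M * f = f) he fun Q _ R _ h1 _ h2 => ?_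
  rw [h1.e0_mul_iff (not_dvd_card_piCoreOf hπ _) (Core.piCoreOf_le _ _)
    (Core.normalizer_le_normalizer_piCoreOf _ _)]
  refine e0_mul_of_le (not_dvd_card_piCoreOf hπ _) (le_trans (le_inf inf_le_left ?_)
    (Core.piCoreOf_inf_le (inf_centralizer_anti h1.le))) h2
  exact inf_le_inf_right _ ((Core.piCoreOf_le _ _).trans inf_le_left)

/-- The kernel condition ascends when the `π`-elements form a subgroup. -/
theorem Sub.e0_inf_mul (h : Sub p M H Q f P e) (hπ : p ∉ π) (hL : IsPiSubgroup π L)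
    (hLC : L ≤ H ⊓ centralizer (Q : Set G))
    (hL' : ∀ y ∈ H ⊓ centralizer (Q : Set G), Core.IsPiNumber π (orderOf y) → y ∈ L)
    (hf : e0 L M * f = f) : e0 (L ⊓ centralizer (P : Set G)) M * e = e := by
  have h0 : ∀ R, Q ≤ R → ∀ y, y ∈ L ⊓ centralizer (R : Set G) ↔
      y ∈ H ⊓ centralizer (R : Set G) ∧ Core.IsPiNumber π (orderOf y) := fun R hR y =>
    ⟨fun h => ⟨⟨(hLC h.1).1, h.2⟩, Core.isPiSubgroup_iff_orderOf.1 hL y h.1⟩,
      fun h => ⟨hL' y (inf_centralizer_anti hR h.1) h.2, h.1.2⟩⟩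
  have h1 : ∀ R, Q ≤ R → normalizer ((H ⊓ centralizer (R : Set G) : Subgroup G) : Set G) ≤
      normalizer ((L ⊓ centralizer (R : Set G) : Subgroup G) : Set G) := fun R hR x hx =>
    mem_normalizer_of_conj_le (conj_le_iff.2 fun y hy => (h0 R hR _).2
      ⟨(mem_normalizer_iff.1 hx y).1 ((h0 R hR y).1 hy).1,
        by rw [← MulAut.conj_apply, MulEquiv.orderOf_eq]; exact ((h0 R hR y).1 hy).2⟩)
  refine h.tail_induction (C := fun (R : Subgroup G) (g : (Res M)[G]) =>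
      e0 (L ⊓ centralizer (R : Set G)) M * g = g)
    (by rwa [inf_eq_left.2 (hLC.trans inf_le_right)]) fun R g P e h2 h3 h4 => ?_
  have := (h3.e0_mul_iff (L := L ⊓ centralizer (R : Set G))
    (fun h => hπ (hL p hp.out (h.trans (card_dvd_of_le inf_le_left))))
    (inf_le_inf_right _ (hLC.trans inf_le_left)) (h1 R h2.le)).1 h4
  rwa [inf_assoc, inf_eq_right.2 (centralizer_le h3.le)] at this

theorem IsMaxPair.e0_piCoreOf_mul (hm : IsMaxPair p M H a P e) (hf : IsPairOf p M H a Q f)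
    (hπ : p ∉ π) (he : e0 (piCoreOf π (H ⊓ Subgroup.centralizer (P : Set G))) M * e = e) :
    e0 (piCoreOf π (H ⊓ Subgroup.centralizer (Q : Set G))) M * f = f := by
  obtain ⟨x, hx, h⟩ := hm.exists_conj_sub hf
  have := h.e0_piCoreOf_mul hπ he
  rw [← conj_inf_centralizer (conj_eq_self_of_mem hx), ← Core.piCoreOf_map_conj, ← cj_e0 rfl,
    ← map_mul] at this
  exact (Block.cj x).injective this

variable {B : Set (IrrCharacter G)} {B₁ : Set (IrrCharacter (normalizer (D : Set G)))}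

theorem Cfsg.IsInducedBlock.e0_piCoreOf_iff (h : IsInducedBlock M _ B₁ B)
    (hm : IsMaxPair p M ⊤ (eblk M B) D e) (hπ : p ∉ π) :
    (∀ n ∈ piCore π (normalizer (D : Set G)), n ∈ blockKer B₁) ↔
      e0 (piCoreOf π (⊤ ⊓ centralizer (D : Set G))) M * e = e := by
  have hD := h.2.1.isDefectGroup_iff_isDefIn_top.2 hm.isDefIn
  have hC := centralizer_le_normalizer (D : Set G)
  have h1 : piCoreOf π (⊤ ⊓ centralizer (D : Set G)) = piCoreOf π (normalizer (D : Set G)) := by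
    rw [top_inf_eq, Core.piCoreOf_eq_inf_of_le_normalizer hC (normalizer_le_normalizer_centralizer D),
      inf_eq_left]
    refine le_centralizer_iff.1 ((Core.le_piCoreOf (π := πᶜ) le_normalizer le_rfl
      (Core.isPiSubgroup_of_isPGroup hm.pgrp hπ)).trans ?_)
    exact Core.piCoreOf_le_centralizer_piCoreOf disjoint_compl_left _
  have h2 : ebl _ M B₁ = br D (eblk M B) := by
    rw [ebl, ← h.res_br_eblk hD, emb_res_subtype_of_supp _ (supp_mono hC (br_mem_supp _ _))]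
  have h3 := h.1.isBlkIdem.e0_mul_iff (not_dvd_card_piCoreOf hπ _) (Core.piCoreOf_le _ _)
    (Core.le_normalizer_piCoreOf _ _) (IsPGroup.of_bot (p := p)) bot_le (fix_anti bot_le
    h.1.isBlkIdem.mem_cen.1) hm.pair.blk.ne_zero (by rw [br_bot, h2, hm.pair.mul])
  rw [h1, ← inf_eq_left.2 (le_centralizer_iff.1 (bot_le (a := centralizer
    (piCoreOf π (normalizer (D : Set G)) : Set G)))), ← h3, h.1.e0_mul_iff (not_dvd_card_piCoreOf hπ _)
    (Core.piCoreOf_le _ _) (Core.le_normalizer_piCoreOf _ _)]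
  refine forall_congr' fun n => imp_congr_left ?_
  rw [← Core.piCoreOf_subgroupOf_self, mem_subgroupOf]

/-- Brauer's kernel condition passes from the Brauer correspondent to local blocks. -/
theorem Cfsg.IsInducedBlock.piCore_subset_blockKer (h : IsInducedBlock M _ B₁ B)
    (hD : IsDefectGroup p M B D) (hπ : p ∉ π)
    (hk : ∀ n ∈ piCore π (normalizer (D : Set G)), n ∈ blockKer B₁)
    {b : Set (IrrCharacter H)} (hb : IsInducedBlock M H b B) (hQ : IsPGroup p Q) (hQH : Q ≤ H)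
    (hC : centralizer (Q : Set G) ≤ H) (h0 : br Q (ebl H M b) ≠ 0) :
    ∀ y ∈ piCore π H, y ∈ blockKer b := by
  obtain ⟨e, hm⟩ := h.2.1.isBlkIdem_top.exists_isMaxPair (h.2.1.isDefectGroup_iff_isDefIn_top.1 hD)
  obtain ⟨f, hf⟩ := exists_isPairOf hb.1.isBlkIdem.mem_cen hb.1.ebl_idem hQ hQH h0
  have h1 : H ⊓ centralizer (Q : Set G) = ⊤ ⊓ centralizer (Q : Set G) := by
    rw [inf_eq_right.2 hC, top_inf_eq]
  have h2 : IsPairOf p M ⊤ (eblk M B) Q f :=
    ⟨le_top, hQ, h1 ▸ hf.blk, by rw [← hf.mul, ← mul_assoc, hb.br_mul_br hQ hQH hC]⟩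
  have h3 := hm.e0_piCoreOf_mul h2 hπ ((h.e0_piCoreOf_iff hm hπ).1 hk)
  have h4 := (hb.1.isBlkIdem.e0_mul_iff (not_dvd_card_piCoreOf hπ _) (Core.piCoreOf_le _ _)
    (Core.le_normalizer_piCoreOf _ _) hQ (hQH.trans (Core.le_normalizer_piCoreOf _ _))
    (fix_anti hQH hb.1.isBlkIdem.mem_cen.1) hf.blk.ne_zero hf.mul).2
    (e0_mul_of_le (not_dvd_card_piCoreOf hπ _) (by rw [top_inf_eq]; exact Core.piCoreOf_inf_le hC) h3)
  intro y hy
  exact (hb.1.e0_mul_iff (not_dvd_card_piCoreOf hπ _) (Core.piCoreOf_le _ _)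
    (Core.le_normalizer_piCoreOf _ _)).1 h4 y ⟨y, hy, rfl⟩

end Cfsg.Lib.Block
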